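import Cfsg.Agent.L0.CosetChain

/-! Generated coset table certificate. -/

set_option autoImplicit false
set_option maxRecDepth 100000

open Cfsg.Agent.L0

namespace Cfsg.Agent.H3.A7.Tc2

noncomputable def t0 : BT := .leaf (nat_lit 0x1380000291488bdca4580000dd6eb571880a000044d14048a94d000008901c493c08200000088241000)

noncomputable def tree : BT := t0

noncomputable def row : ℕ → ℕ := rowOf tree (nat_lit 3) (nat_lit 7) (nat_lit 66) (nat_lit 0x3ffffffffffffffff)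

noncomputable def cols : List Col := [⟨nat_lit 12, nat_lit 1, [([nat_lit 57], nat_lit 0), ([nat_lit 12, nat_lit 12], nat_lit 0), ([nat_lit 30, nat_lit 12, nat_lit 30], nat_lit 0)]⟩,
  ⟨nat_lit 21, nat_lit 1, [([nat_lit 21], nat_lit 0), ([nat_lit 12, nat_lit 21, nat_lit 12, nat_lit 21, nat_lit 12], nat_lit 0)]⟩,
  ⟨nat_lit 30, nat_lit 0, [([nat_lit 30], nat_lit 0), ([nat_lit 12, nat_lit 30, nat_lit 12], nat_lit 0), ([nat_lit 21, nat_lit 30, nat_lit 21, nat_lit 30, nat_lit 21], nat_lit 0)]⟩,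
  ⟨nat_lit 57, nat_lit 1, [([nat_lit 12], nat_lit 0)]⟩]

noncomputable def erots : List (List ℕ × ℕ) := []

noncomputable def gens : List ℕ := [nat_lit 12, nat_lit 21, nat_lit 30, nat_lit 57]

noncomputable def chk : ℕ → Bool := chkRow0 row (nat_lit 5) (nat_lit 0x7) (nat_lit 0x38) (nat_lit 6) (nat_lit 0x7) (nat_lit 0) (nat_lit 0x7) (nat_lit 3) (nat_lit 0x7f) (nat_lit 0xc00) [] cols gens

theorem b0 : allR chk 3 0 = true := by decide +kernel

noncomputable def T : CT := ⟨row, nat_lit 5, nat_lit 5, nat_lit 0x7, nat_lit 0x38, nat_lit 6, nat_lit 0x7, nat_lit 0, nat_lit 0x7, nat_lit 3, nat_lit 0x7f, nat_lit 0xc00, nat_lit 66, nat_lit 66, nat_lit 0, nat_lit 6, [], cols, erots, gens⟩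

theorem all : ∀ c < 5, chk c = true := fun c hc =>
  allR_glue (d := 3) (n := 1) (forall_lt_succ' forall_lt_zero' b0) c (lt_of_lt_of_le hc (by norm_num))

/-- the relators used -/
def R : List (List ℕ) := [[nat_lit 0, nat_lit 5],
  [nat_lit 1, nat_lit 1],
  [nat_lit 2, nat_lit 2],
  [nat_lit 0, nat_lit 0, nat_lit 0],
  [nat_lit 1, nat_lit 0, nat_lit 1, nat_lit 0, nat_lit 1, nat_lit 0],
  [nat_lit 2, nat_lit 0, nat_lit 2, nat_lit 0],
  [nat_lit 2, nat_lit 1, nat_lit 2, nat_lit 1, nat_lit 2, nat_lit 1]]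

theorem cert : Cert T (R.map fun r => (r, 0)) ([0, 1, 5].map fun y => (y, 0)) 12 9 [0, 1, 2, 5] :=
  ⟨by decide +kernel, ⟨[[(0, 0), (3, 0), (5, 1)], [(1, 0), (4, 0)], [(2, 0), (5, 0), (6, 0)], [(0, 1)]], [], by decide +kernel⟩, by decide +kernel, Or.inl ⟨rfl, all⟩⟩

theorem bound {Γ : Type*} [Group Γ] {x : ℕ → Γ} (hR : ∀ r ∈ R, ev x r = 1) {n : ℕ}
    (h : CardLe x [0, 1, 5] n) : CardLe x [0, 1, 2, 5] (5 * n) :=
  cert.cardLe rfl hR h

end Cfsg.Agent.H3.A7.Tc2
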