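import Cfsg.Agent.H3.Mu.A7.Tab

/-! Generated labelled table of a central extension. -/

set_option autoImplicit false
set_option maxRecDepth 100000

open Cfsg.Agent.L0

namespace Cfsg.Agent.H3.A7

noncomputable def L3Erowt0 : BT := .leaf (nat_lit 0xd76936a269b9d39c79b68c2ed9a69e6b17b187051de1de24e24534758420429a6d22ab61c20b5822c294a0d91058880480814c01630249070061408011010d304308004)

noncomputable def L3Erowtree : BT := L3Erowt0

noncomputable def L3Erow : ℕ → ℕ := rowOf L3Erowtree (nat_lit 4) (nat_lit 15) (nat_lit 36) (nat_lit 0xfffffffff)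

noncomputable def L3E : ℕ → ℕ → ℕ := pT L3Erow (nat_lit 6) (nat_lit 63)

def L3RL : List (List ℕ × ℕ) := [([nat_lit 0, nat_lit 5], nat_lit 2),
  ([nat_lit 1, nat_lit 1], nat_lit 0),
  ([nat_lit 2, nat_lit 2], nat_lit 0),
  ([nat_lit 3, nat_lit 3], nat_lit 0),
  ([nat_lit 4, nat_lit 4], nat_lit 0),
  ([nat_lit 5, nat_lit 0], nat_lit 2),
  ([nat_lit 0, nat_lit 0, nat_lit 0], nat_lit 0),
  ([nat_lit 1, nat_lit 0, nat_lit 1, nat_lit 0, nat_lit 1, nat_lit 0], nat_lit 0),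
  ([nat_lit 2, nat_lit 0, nat_lit 2, nat_lit 0], nat_lit 0),
  ([nat_lit 2, nat_lit 1, nat_lit 2, nat_lit 1, nat_lit 2, nat_lit 1], nat_lit 0),
  ([nat_lit 3, nat_lit 0, nat_lit 3, nat_lit 0], nat_lit 1),
  ([nat_lit 3, nat_lit 1, nat_lit 3, nat_lit 1], nat_lit 0),
  ([nat_lit 3, nat_lit 2, nat_lit 3, nat_lit 2, nat_lit 3, nat_lit 2], nat_lit 0),
  ([nat_lit 4, nat_lit 0, nat_lit 4, nat_lit 0], nat_lit 0),
  ([nat_lit 4, nat_lit 1, nat_lit 4, nat_lit 1], nat_lit 0),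
  ([nat_lit 4, nat_lit 2, nat_lit 4, nat_lit 2], nat_lit 0),
  ([nat_lit 4, nat_lit 3, nat_lit 4, nat_lit 3, nat_lit 4, nat_lit 3], nat_lit 0)]

noncomputable def L3chkf : ℕ → Bool := relChkL L3E (nat_lit 2) (nat_lit 3) (nat_lit 1) (nat_lit 3) (nat_lit 15) [nat_lit 0, nat_lit 1, nat_lit 2, nat_lit 3, nat_lit 4, nat_lit 5] L3RL

theorem L3chkb0 : allR L3chkf 4 0 = true := by decide +kernel

theorem L3chk : ∀ c < 15, L3chkf c = true := fun c hc =>
  allR_glue (d := 4) (n := 1) (forall_lt_succ' forall_lt_zero' L3chkb0) c (lt_of_lt_of_le hc (by norm_num))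

theorem L3rep : Rep 6 R (ZMod 3) 1 (valL L3RL 3) :=
  rep_of_chk (by decide +kernel) (by decide) (by decide) (by decide +kernel) (by decide +kernel)
    (by decide +kernel) le_rfl L3chk

end Cfsg.Agent.H3.A7
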