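import Cfsg.Agent.H3.Mu.A7.Core
import Cfsg.Agent.H3.Mu.A7.L2
import Cfsg.Agent.H3.Mu.A7.L3
import Cfsg.Agent.H3.Mu.A7.P2
import Cfsg.Agent.H3.Mu.A7.P3

/-! The Schur multiplier. -/

set_option autoImplicit false
set_option maxRecDepth 100000

open Cfsg.Agent.L0

namespace Cfsg.Agent.H3.A7


theorem schur {G : Type*} [Group G] (hm : Model G 7 5 T Bf) :
    Finite G ∧ Nat.card G = 2520 ∧ HasSchurMultiplier G (Multiplicative (ZMod 6)) := by
  obtain ⟨A, x, h⟩ := core' hm
  haveI := h.fin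
  have h2 := P2.pm h.base h.tab h.card
  have h3 := P3.pm h.base h.tab h.card
  have hr := pmult_rest h.card [] (by simp) (by decide +kernel) (by decide +kernel)
  exact ⟨h.fin, h.card, hasSchur_of (lower_six (lower_two h.pres L2rep L3rep
    [(-2, 7), (3, 8), (3, 14), (-3, 15)]
    [(1, 10), (-1, 11), (-1, 13), (1, 14)]
    (by decide +kernel) (by decide +kernel) (by decide +kernel)))
    (upper_cyclic (k2 := 1) (k3 := 1) rfl h2 h3 hr)⟩

end Cfsg.Agent.H3.A7
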